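import Cfsg.Agent.CTwoTab.HS
import Cfsg.Agent.H904.HSCent
import Cfsg.Agent.KFacts.HS.Final
import Cfsg.Agent.H284.FStd

/-!
# `F*(G) = HS` and an involution with a component `A₆` in its centralizer: `G = HS` if the order of the centralizer is
not divisible by `2^7`
-/

set_option autoImplicit false
set_option linter.unusedSectionVars false

namespace Cfsg.Agent.H286.HSTop

open Subgroup Cfsg

universe u

variable {G : Type u} [Group G]

theorem conjNormal_eq_conj {K : Subgroup G} [K.Normal] {t : G} (ht : t ∈ K) :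
    (MulAut.conjNormal t : MulAut ↥K) = MulAut.conj ⟨t, ht⟩ := by
  ext y
  rw [MulAut.conjNormal_apply, MulAut.conj_apply]
  rfl

/-- `t` induces an inner automorphism on `K`, `C_G(K) = 1`: `t ∈ K` -/
theorem mem_of_inner {K : Subgroup G} [K.Normal] (hc : centralizer (K : Set G) = ⊥) {t : G}
    (h : ∃ g, (MulAut.conjNormal t : MulAut ↥K) = MulAut.conj g) : t ∈ K := by
  obtain ⟨g, hg⟩ := h
  have h1 : (g : G)⁻¹ * t ∈ centralizer (K : Set G) := by
    rw [mem_centralizer_iff]
    intro y hy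
    have h2 := congrArg (fun f : MulAut ↥K => ((f ⟨y, hy⟩ : ↥K) : G)) hg
    simp only [MulAut.conjNormal_apply, MulAut.conj_apply, coe_mul, InvMemClass.coe_inv] at h2
    -- `t y t⁻¹ = g y g⁻¹`
    calc y * ((g : G)⁻¹ * t) = (g : G)⁻¹ * ((g : G) * y * (g : G)⁻¹) * t := by group
      _ = (g : G)⁻¹ * (t * y * t⁻¹) * t := by rw [h2]
      _ = (g : G)⁻¹ * t * y := by group
  rw [hc, mem_bot] at h1
  have h2 : t = g := (inv_mul_eq_one.1 h1).symm
  rw [h2]
  exact g.2

theorem index_le [Finite G] {K : Subgroup G} [hK : K.Normal] (hc : centralizer (K : Set G) = ⊥)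
    (h : (MulAut.conj : ↥K →* MulAut ↥K).range.index ≤ 2) : K.index ≤ 2 := by
  have h1 : (MulAut.conj : ↥K →* MulAut ↥K).range.comap (MulAut.conjNormal : G →* MulAut ↥K) = K := by
    ext t
    rw [mem_comap]
    constructor
    · rintro ⟨g, hg⟩
      exact mem_of_inner hc ⟨g, hg.symm⟩
    · intro ht
      exact ⟨⟨t, ht⟩, (conjNormal_eq_conj ht).symm⟩
  rw [← h1, index_comap]
  refine le_trans ?_ h
  rw [← relIndex_top_right]
  exact relIndex_le_of_le_right le_top (by rw [relIndex_top_right]; exact index_ne_zero_of_finite)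

/-- the order of the centralizer of an element of `K` is invariant under `G` -/
theorem card_cen_aut {L : Type u} [Group L] (α : MulAut L) (x : L) :
    Nat.card ↥(centralizer ({α x} : Set L)) = Nat.card ↥(centralizer ({x} : Set L)) := by
  refine Nat.card_congr ⟨fun y => ⟨α.symm y.1, ?_⟩, fun y => ⟨α y.1, ?_⟩, fun y => ?_, fun y => ?_⟩
  · rw [mem_centralizer_singleton_iff]
    have h := mem_centralizer_singleton_iff.1 y.2
    apply α.injective
    rw [map_mul, map_mul, MulEquiv.apply_symm_apply, h]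
  · rw [mem_centralizer_singleton_iff]
    have h := mem_centralizer_singleton_iff.1 y.2
    rw [← map_mul, h, map_mul]
  · exact Subtype.ext (MulEquiv.apply_symm_apply α _)
  · exact Subtype.ext (MulEquiv.symm_apply_apply α _)

open Cfsg.Agent.KFacts.HS Cfsg.Agent.KFacts.HS.DFour in
/-- the involutions of `HS` with a component in the centralizer: centralizers of order 2880, one class -/
theorem hs_class {L : Type u} [Group L] [Finite L] (h : Spor.IsoHS L) {x : L} (hx : orderOf x = 2) {A : Subgroup L}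
    (hA : IsComponentOf A (centralizer ({x} : Set L))) :
    Nat.card ↥(centralizer ({x} : Set L)) = 2880 ∧
      ∀ y : L, orderOf y = 2 → Nat.card ↥(centralizer ({y} : Set L)) = 2880 → ∃ c, y = c * x * c⁻¹ := by
  obtain ⟨D, ψ, R⟩ := H904.HSCent.exists_rep h
  have hxx : x * x = 1 := by rw [← pow_two, ← hx, pow_orderOf_eq_one]
  have hx1 : x ≠ 1 := by
    rintro rfl
    rw [orderOf_one] at hx
    omega
  have hw := H904.HSCent.card_wB R
  obtain ⟨c, hc⟩ : ∃ c, x = c * wB D * c⁻¹ := by
    rcases inv_cases D x hxx hx1 with ⟨c, rfl⟩ | ⟨c, hc⟩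
    · exfalso
      have h1 := CTwoTab.isComponentOf_map (MulAut.conj c).symm hA
      rw [CTwoTab.map_centralizer_singleton] at h1
      rw [show (MulAut.conj c).symm (c * zA D * c⁻¹) = zA D by
        rw [MulAut.conj_symm_apply]; group] at h1
      exact CTwoTab.HS.no_comp_zA D _ h1
    · exact ⟨c, hc.symm⟩
  have h1 : Nat.card ↥(centralizer ({x} : Set L)) = 2880 := by
    rw [hc, H904.HSCent.card_centralizer_conj, hw]
  refine ⟨h1, fun y hy hyc => ?_⟩
  have hyy : y * y = 1 := by rw [← pow_two, ← hy, pow_orderOf_eq_one]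
  have hy1 : y ≠ 1 := by
    rintro rfl
    rw [orderOf_one] at hy
    omega
  rcases inv_cases D y hyy hy1 with ⟨d, rfl⟩ | ⟨d, hd⟩
  · exfalso
    rw [H904.HSCent.card_centralizer_conj, H904.HSCent.card_zA] at hyc
    omega
  · refine ⟨d * c⁻¹, ?_⟩
    rw [← hd, hc]
    group

/-- **`F*(G) = HS`** -/
theorem hs_top [Finite G] {K : Subgroup G} [hK : K.Normal] (hc : centralizer (K : Set G) = ⊥) (hHS : Spor.IsoHS ↥K)
    {t : G} (htK : t ∈ K) (ht : orderOf t = 2) {A : Subgroup ↥K}
    (hA : IsComponentOf A (centralizer ({(⟨t, htK⟩ : ↥K)} : Set ↥K)))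
    (h7 : ¬ 128 ∣ Nat.card ↥(centralizer ({t} : Set G))) : K = ⊤ := by
  have hi := index_le hc (KFacts.HS.index_inn hHS).le
  have hx : orderOf (⟨t, htK⟩ : ↥K) = 2 := by rw [← Subgroup.orderOf_coe]; exact ht
  obtain ⟨h1, h2⟩ := hs_class hHS hx hA
  set C := centralizer ({t} : Set G) with hC
  -- `G = K C_G(t)`
  have h3 : ∀ g : G, ∃ k ∈ K, k⁻¹ * g ∈ C := by
    intro g
    have h4 : orderOf ((MulAut.conjNormal g : MulAut ↥K) ⟨t, htK⟩) = 2 := by
      exact (orderOf_injective (MulAut.conjNormal g : MulAut ↥K).toMonoidHom (MulEquiv.injective _) _).trans hx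
    obtain ⟨c, hcc⟩ := h2 _ h4 (by rw [card_cen_aut]; exact h1)
    refine ⟨c, c.2, ?_⟩
    have h5 := congrArg Subtype.val hcc
    rw [MulAut.conjNormal_apply] at h5
    simp only [coe_mul, InvMemClass.coe_inv] at h5
    rw [hC, mem_centralizer_singleton_iff]
    calc (c : G)⁻¹ * g * t = (c : G)⁻¹ * (g * t * g⁻¹) * g := by group
      _ = (c : G)⁻¹ * ((c : G) * t * (c : G)⁻¹) * g := by rw [h5]
      _ = t * ((c : G)⁻¹ * g) := by group
  by_contra hne
  have hnot : ¬ C ≤ K := by
    intro hle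
    apply hne
    rw [eq_top_iff]
    intro g _
    obtain ⟨k, hk, hkc⟩ := h3 g
    have := mul_mem hk (hle hkc)
    rwa [mul_inv_cancel_left] at this
  have h4 : K.relIndex C ≤ 2 := by
    refine le_trans ?_ hi
    rw [← relIndex_top_right]
    exact relIndex_le_of_le_right le_top (by rw [relIndex_top_right]; exact index_ne_zero_of_finite)
  have h5 : K.relIndex C ≠ 1 := fun h => hnot (relIndex_eq_one.1 h)
  have h6 : K.relIndex C ≠ 0 := index_ne_zero_of_finite
  have h8 : K.relIndex C = 2 := by omega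
  have h9 := (K.subgroupOf C).card_mul_index
  have h10 : (K.subgroupOf C).index = 2 := h8
  have h11 : Nat.card ↥(K.subgroupOf C) = 2880 := by
    rw [← h1]
    refine Nat.card_congr ⟨fun y => ⟨⟨((y : ↥C) : G), y.2⟩, ?_⟩, fun y => ⟨⟨((y : ↥K) : G), ?_⟩, (y : ↥K).2⟩, fun _ => rfl, fun _ => rfl⟩
    · rw [mem_centralizer_singleton_iff]
      exact Subtype.ext (mem_centralizer_singleton_iff.1 (y : ↥C).2)
    · rw [hC, mem_centralizer_singleton_iff]
      exact congrArg Subtype.val (mem_centralizer_singleton_iff.1 y.2)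
  rw [h10, h11] at h9
  apply h7
  rw [← h9]
  norm_num

end Cfsg.Agent.H286.HSTop
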